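import Mathlib
import Cfsg.Agent.Lib.Helper19.SPU.Defs

/-!
# Team project SPU (S2316): package [UNIPJ]

The elements of `p`-power order of Mathlib's `symplecticGroup (Fin m) F` (`char F = p`) are
counted by `cU (J m)`: `g ∈ Sp ↔ gᵀ J g = J` (`mem_iff'`), and `g` has `p`-power order iff
`g - 1` is nilpotent.
-/

set_option autoImplicit false

namespace Cfsg.Agent.Lib.Helper29.SPU

open Matrix Cfsg.Agent.Lib.Helper19.SPU

universe u

/-- [UNIPJ] -/
theorem pkgUnipJ : PkgUnipJ.{u} := by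
  intro F _ _ p _ _ m
  unfold cU
  have hp := (Fact.out : p.Prime)
  rcases m with _ | n
  · -- empty index type: both sides are `1`
    have hs : ∀ A B : Matrix (Fin 0 ⊕ Fin 0) (Fin 0 ⊕ Fin 0) F, A = B := fun A B =>
      Matrix.ext fun i => (Sum.elim Fin.elim0 Fin.elim0 i)
    have h1 : Nat.card {g : ↥(Matrix.symplecticGroup (Fin 0) F) // ∃ k : ℕ, orderOf g = p ^ k}
        = 1 := by
      rw [Nat.card_eq_one_iff_unique]
      refine ⟨⟨fun a b => Subtype.ext (Subtype.ext (hs _ _))⟩, ⟨⟨1, 0, by simp⟩⟩⟩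
    have h2 : Nat.card {g : Matrix (Fin 0 ⊕ Fin 0) (Fin 0 ⊕ Fin 0) F //
        Isom (Matrix.J (Fin 0) F) g ∧ IsNilpotent (g - 1)} = 1 := by
      rw [Nat.card_eq_one_iff_unique]
      refine ⟨⟨fun a b => Subtype.ext (hs _ _)⟩, ⟨⟨1, hs _ _, ?_⟩⟩⟩
      rw [sub_self]
      exact IsNilpotent.zero
    rw [h1, h2]
  · refine Nat.card_congr ⟨fun g => ⟨(g.1 : Matrix _ _ F), ?_, ?_⟩,
      fun h => ⟨⟨h.1, ?_⟩, ?_⟩, ?_, ?_⟩
    · exact SymplecticGroup.mem_iff'.mp g.1.2
    · obtain ⟨k, hk⟩ := g.2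
      refine ⟨p ^ k, ?_⟩
      rw [sub_pow_char_pow_of_commute p k (Commute.one_right _), one_pow, sub_eq_zero]
      have h1 := pow_orderOf_eq_one g.1
      rw [hk] at h1
      have h2 := congrArg Subtype.val h1
      exact h2
    · exact SymplecticGroup.mem_iff'.mpr h.2.1
    · obtain ⟨k, hk⟩ := h.2.2
      have hle : k ≤ p ^ k := (Nat.lt_pow_self hp.one_lt).le
      have h1 : (⟨h.1, SymplecticGroup.mem_iff'.mpr h.2.1⟩ :
          ↥(Matrix.symplecticGroup (Fin (n + 1)) F)) ^ (p ^ k) = 1 := by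
        apply Subtype.ext
        show h.1 ^ (p ^ k) = 1
        have e : h.1 = (h.1 - 1) + 1 := (sub_add_cancel _ _).symm
        rw [e, add_pow_char_pow_of_commute p k (Commute.one_right _), one_pow]
        obtain ⟨d, hd⟩ := Nat.exists_eq_add_of_le hle
        rw [hd, pow_add, hk, zero_mul, zero_add]
      obtain ⟨j, -, hj⟩ := (Nat.dvd_prime_pow hp).mp (orderOf_dvd_of_pow_eq_one h1)
      exact ⟨j, hj⟩
    · intro g
      rfl
    · intro h
      rfl

end Cfsg.Agent.Lib.Helper29.SPU
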